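import Cfsg.Agent.Lib.Zass.FeitCond
import Cfsg.Agent.Lib.Dade.SibleyMain

/-!
Feit's argument for a Zassenhaus group whose kernel is not abelian, from the coherence of the
characters of the point stabiliser: `|U| - 1 ≤ 2 d` unless `U` is a `2`-group.
-/

set_option autoImplicit false
set_option maxHeartbeats 1000000

open scoped ComplexConjugate

namespace Cfsg.Agent.Lib.Zass

open scoped commutatorElement

open MulAction Cfsg Cfsg.Agent.Lib.Char Cfsg.Agent.Lib.ZassFrob
open Cfsg.Agent.Lib.Char.ATI (lin lin_apply lin_bijective)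

universe u v

variable {G : Type u} {Ω : Type v} [Group G] [MulAction G Ω] {U : Subgroup G} {a b : Ω}

open scoped _root_.Classical in
/-- If the characters induced from the kernel to the point stabiliser are coherent and the kernel
is not abelian then `|U| - 1 ≤ 2 d`. -/
theorem coherent_bound [Fintype G] [Fintype Ω] (hZ : IsZassenhausGroup G Ω) (hK : IsKernel U a b)
    [Fintype ↥(stabilizer G a)] [hUn : (U.subgroupOf (stabilizer G a)).Normal] [Group.IsNilpotent U]
    (hC : ∀ h ∈ U.subgroupOf (stabilizer G a), h ≠ 1 →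
      Subgroup.centralizer ({h} : Set ↥(stabilizer G a)) ≤ U.subgroupOf (stabilizer G a))
    (hcoh : IsCoherent (Dade.relChars (U.subgroupOf (stabilizer G a))) {1}ᶜ
      (fun α : ↥(stabilizer G a) → ℂ => indFun (stabilizer G a) α))
    (hna : ¬ IsMulCommutative U)
    (hHc : IsMulCommutative ↥(stabilizer G a ⊓ stabilizer G b)) (s : G) (hsa : s • a = b)
    (hinv : ∀ h ∈ stabilizer G a ⊓ stabilizer G b, s * h * s⁻¹ = h⁻¹)
    {d : ℕ} (hd : Nat.card ↥(stabilizer G a ⊓ stabilizer G b) = d) (hodd : Odd d) :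
    Nat.card U - 1 ≤ 2 * d := by
  have hdone : d ≠ 1 := fun e =>
    twoPt_ne_bot hZ hK.ne (Subgroup.card_eq_one.mp (hd.trans e))
  haveI : IsPretransitive G Ω := by
    haveI := hZ.2.1
    exact isPretransitive_of_is_two_pretransitive
  haveI := Fintype.ofFinite U
  set H := stabilizer G a ⊓ stabilizer G b with hH
  haveI := Fintype.ofFinite H
  let N := stabilizer G a
  have hN : N = stabilizer G a := rfl
  set q := Nat.card U with hqdef
  have hUN : U ≤ N := hK.le
  have hHN : ∀ h : H, (h : G) ∈ N := fun h => h.2.1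
  -- coordinates on `N`
  let φ : U × H → N := fun x => ⟨(x.1 : G) * x.2, mul_mem (hUN x.1.2) (hHN x.2)⟩
  have hφ : Function.Bijective φ := by
    refine ⟨?_, fun n => ?_⟩
    · rintro ⟨u, h⟩ ⟨u', h'⟩ e
      have e' : (u : G) * h = (u' : G) * h' := congrArg Subtype.val e
      have hu' : u = u' := by
        refine (hK.reg _ (hK.smul_ne u)).unique rfl ?_
        have := congrArg (· • b) e'
        simpa [mul_smul, show (h : G) • b = b from h.2.2, show (h' : G) • b = b from h'.2.2]
          using this.symm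
      subst hu'
      exact Prod.ext rfl (Subtype.ext (mul_left_cancel e'))
    · obtain ⟨u, hu, -⟩ := hK.reg ((n : G) • b) fun e =>
        hK.ne (MulAction.injective (n : G) ((n.2 : _).trans e.symm))
      refine ⟨(u, ⟨(u : G)⁻¹ * n, (mul_mem (inv_mem (hUN u.2)) n.2 : (u : G)⁻¹ * n ∈ N), ?_⟩),
        Subtype.ext (mul_inv_cancel_left _ _)⟩
      show ((u : G)⁻¹ * n) • b = b
      rw [mul_smul, inv_smul_eq_iff, hu]
  let ψ := Equiv.ofBijective φ hφ
  have hψ : ∀ u h, ((ψ (u, h) : N) : G) = (u : G) * h := fun _ _ => rfl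
  have sumN : ∀ g : N → ℂ, ∑ n, g n = ∑ h : H, ∑ u : U, g (ψ (u, h)) := fun g => by
    rw [← Equiv.sum_comp ψ, Fintype.sum_prod_type_right]
  have hcN : (Nat.card N : ℂ) = (q : ℂ) * d := by
    rw [← Nat.card_congr ψ, Nat.card_prod, hd]; push_cast; rfl
  have hq0 : (q : ℂ) ≠ 0 := card_ne_zero_complex U
  have hd0 : (d : ℂ) ≠ 0 := hd ▸ card_ne_zero_complex H
  have hidx : N.index = q + 1 := by
    rw [hN, index_stabilizer_of_transitive, hK.card_eq]
  have hproj : ∀ n m : N, (ψ.symm (n * m)).2 = (ψ.symm n).2 * (ψ.symm m).2 := by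
    intro n m
    obtain ⟨⟨u, h⟩, rfl⟩ := ψ.surjective n
    obtain ⟨⟨u', h'⟩, rfl⟩ := ψ.surjective m
    have hu : (h : G) * u' * (h : G)⁻¹ ∈ U := hK.conj _ (hHN h) _ u'.2
    have e : ψ (u, h) * ψ (u', h') = ψ (⟨(u : G) * ((h : G) * u' * (h : G)⁻¹),
        mul_mem u.2 hu⟩, h * h') := Subtype.ext (by simp [hψ, mul_assoc])
    simp [e]
  let π : N →* H := MonoidHom.mk' (fun n => (ψ.symm n).2) hproj
  have hπ : ∀ u h, π (ψ (u, h)) = h := fun u h => by simp [π]
  have hπU : ∀ n : N, (n : G) ∈ U → π n = 1 := fun n hn => by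
    have e : ψ (⟨(n : G), hn⟩, 1) = n := Subtype.ext (by simp [hψ])
    rw [← e, hπ]
  have hπH : ∀ k : H, π ⟨(k : G), hHN k⟩ = k := fun k => by
    rw [show (⟨(k : G), hHN k⟩ : N) = ψ (1, k) from Subtype.ext (by simp [hψ]), hπ]
  have hfix : ∀ (u : U), u ≠ 1 → ∀ x : G, x⁻¹ * (u : G) * x ∈ N → x ∈ N := by
    intro u hu x hm
    have h1 : (x⁻¹ * (u : G) * x) • a = a := hm
    rw [mul_smul, mul_smul, inv_smul_eq_iff] at h1
    exact hK.fix_only u.2 (fun e => hu (Subtype.ext e)) h1
  have hswap : ∀ (h : H), h ≠ 1 → ∀ x : G, x ∉ N → x⁻¹ * (h : G) * x ∈ N → s⁻¹ * x ∈ N := by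
    intro h hh x hx hm
    have h1 : (x⁻¹ * (h : G) * x) • a = a := hm
    rw [mul_smul, mul_smul, inv_smul_eq_iff] at h1
    rcases eq_or_eq_of_fix hZ (fun e => hh (Subtype.ext e)) hK.ne h.2.1 h.2.2 h1 with e | e
    · exact absurd e hx
    · show (s⁻¹ * x) • a = a
      rw [mul_smul, e, inv_smul_eq_iff, hsa]
  have hsN : s ∉ N := fun e => hK.ne ((e : s • a = a).symm.trans hsa)
  have hcf : ∀ (θ : G → ℂ), IsClassFunction G θ → ∀ (u : U) (h : H), h ≠ 1 →
      θ ((u : G) * h) = θ h := by
    intro θ hθ u h hh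
    obtain ⟨w, -, hwe⟩ := hK.exists_conj_eq hZ h.2 (fun e => hh (Subtype.ext e)) u.2
    rw [← hwe]; exact hθ _ _
  have hHcomm : ∀ g h : H, (g : G) * h = h * g := fun g h =>
    congrArg Subtype.val (hHc.is_comm.comm g h)
  -- orbits on the nontrivial characters of `U`
  let X := {χ : IrrCharacter U // (χ : U → ℂ) ≠ fun _ => 1}
  let act : MulAction H X :=
    { smul := fun h χ => ⟨⟨(χ.1 : U → ℂ) ∘ hK.conjU h,
        isIrrCharacter_comp χ.1.2 _ (hK.conjU_surjective h)⟩, fun e => χ.2 (funext fun u => by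
          have := congrFun e (hK.conjU h⁻¹ u)
          simp only [Function.comp_apply, hK.conjU_conjU, inv_mul_cancel, hK.conjU_one] at this
          exact this)⟩
      one_smul := fun χ => Subtype.ext (Subtype.ext (funext fun u => by
        show (χ.1 : U → ℂ) (hK.conjU 1 u) = _
        rw [hK.conjU_one]))
      mul_smul := fun g h χ => Subtype.ext (Subtype.ext (funext fun u => by
        show (χ.1 : U → ℂ) (hK.conjU (g * h) u) = (χ.1 : U → ℂ) (hK.conjU h (hK.conjU g u))
        rw [hK.conjU_conjU])) }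
  let ι := Quotient (MulAction.orbitRel H X)
  haveI : Fintype ι := Fintype.ofFinite ι
  have hfreeA : ∀ (h : H) (χ : X), h • χ = χ → h = 1 := fun h χ e => by
    by_contra h1
    exact χ.2 (hK.irr_free hZ h1 χ.1 (congrArg (fun y : X => (y.1 : U → ℂ)) e))
  have horb : Function.Bijective fun x : ι × H => x.2 • x.1.out := by
    refine ⟨?_, fun ν => ?_⟩
    · rintro ⟨i, h⟩ ⟨j, k⟩ e
      simp only at e
      have hij : i = j := by
        rw [← Quotient.out_eq i, ← Quotient.out_eq j]
        exact Quotient.sound ⟨h⁻¹ * k, by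
          show (h⁻¹ * k) • j.out = i.out
          rw [mul_smul, ← e, inv_smul_smul]⟩
      subst hij
      exact Prod.ext rfl (inv_mul_eq_one.mp (hfreeA (k⁻¹ * h) i.out
        (by rw [mul_smul, e, inv_smul_smul]))).symm
    · obtain ⟨h, hh⟩ := Quotient.exact (Quotient.out_eq
        (Quotient.mk (MulAction.orbitRel H X) ν))
      refine ⟨(Quotient.mk (MulAction.orbitRel H X) ν, h⁻¹), ?_⟩
      show h⁻¹ • _ = ν
      rw [← hh]; exact inv_smul_smul h ν
  let rep : ι × H → IrrCharacter U := fun x => (x.2 • x.1.out).1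
  have hrepapp : ∀ i h (u : U), (rep (i, h) : U → ℂ) u = (i.out.1 : U → ℂ) (hK.conjU h u) :=
    fun _ _ _ => rfl
  have hrepinj : Function.Injective rep := fun _ _ e => horb.1 (Subtype.ext e)
  let one1 : IrrCharacter U := ⟨fun _ => 1, isIrrCharacter_one⟩
  have hrepne : ∀ y, rep y ≠ one1 := fun y e => (y.2 • y.1.out).2 (congrArg Subtype.val e)
  have hrepsurj : ∀ χ : IrrCharacter U, χ ≠ one1 → ∃ y, rep y = χ := fun χ hχ => by
    obtain ⟨y, hy⟩ := horb.2 ⟨χ, fun e => hχ (Subtype.ext e)⟩
    exact ⟨y, congrArg Subtype.val hy⟩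
  let z : ι → ℕ := fun i => charDegree (i.out.1 : U → ℂ)
  have hzone : ∀ i, (i.out.1 : U → ℂ) 1 = (z i : ℂ) := fun i =>
    apply_one_eq_charDegree (isCharacter_of_isIrr i.out.1.2)
  have hdeg1 : ∀ y, charDegree (rep y : U → ℂ) = z y.1 := fun y => by
    refine charDegree_eq_of_apply_one ?_
    rw [hrepapp y.1 y.2, map_one, hzone]
  have hone1 : charDegree (one1 : U → ℂ) = 1 := charDegree_one
  have hsumU : ∀ g : IrrCharacter U → ℕ,
      ∑ χ, g χ = g one1 + ∑ i, ∑ h, g (rep (i, h)) := fun g =>
    sum_irr_orbits one1 rep hrepinj hrepne hrepsurj g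
  -- degrees and sums
  have hT2 : q = 1 + d * ∑ i, z i ^ 2 := by
    rw [hqdef, ← sum_charDegree_sq (G := U), hsumU, hone1, one_pow]
    simp only [hdeg1, Finset.sum_const, Finset.card_univ, ← Nat.card_eq_fintype_card, hd,
      smul_eq_mul, ← Finset.mul_sum]
  by_contra hlt
  obtain ⟨e, he⟩ := hodd
  have he1 : 1 ≤ e := by omega
  have hidx1 : (commutator U).index = 1 + (Finset.univ.filter fun i => z i = 1).card * d := by
    rw [← card_linear, Nat.card_eq_fintype_card, Fintype.card_subtype, Finset.card_filter,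
      hsumU, Finset.card_filter, Finset.sum_mul]
    simp only [← charDegree_eq_one_iff one1.2, hone1, if_true,
      fun y => (charDegree_eq_one_iff (rep y).2).symm, hdeg1, Finset.sum_const, Finset.card_univ,
      ← Nat.card_eq_fintype_card, hd, smul_eq_mul]
    congr 1
    exact Finset.sum_congr rfl fun i _ => mul_comm _ _
  haveI : Nontrivial U := by
    rw [← Finite.one_lt_card_iff_nontrivial]; omega
  obtain ⟨l₀, hl₀⟩ : ∃ l₀, z l₀ = 1 := by
    by_contra hno
    push Not at hno
    rw [Finset.filter_false_of_mem fun i _ => hno i, Finset.card_empty, zero_mul, add_zero] at hidx1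
    exact (Group.IsSolvable.commutator_lt_top_of_nontrivial U).ne (Subgroup.index_eq_one.mp hidx1)
  have hderived : d + 1 ≤ Nat.card (commutator U) := by
    have hne : commutator U ≠ ⊥ := fun h => hna ⟨⟨fun x y => by
      have : ⁅x, y⁆ ∈ commutator U :=
        Subgroup.commutator_mem_commutator (Subgroup.mem_top x) (Subgroup.mem_top y)
      rw [h, Subgroup.mem_bot, commutatorElement_eq_one_iff_mul_comm] at this
      exact this⟩⟩
    obtain ⟨⟨u₀, hu₀⟩, hu₀1⟩ := Subgroup.ne_bot_iff_exists_ne_one.mp hne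
    let f : Option H → commutator U := fun o => o.elim 1 fun h => ⟨hK.conjU h u₀, by
      have := Subgroup.mem_map_of_mem (hK.conjU h) hu₀
      rw [commutator_def, Subgroup.map_commutator] at this
      exact Subgroup.commutator_mono le_top le_top this⟩
    have hf : Function.Injective f := by
      have hne1 : ∀ h : H, hK.conjU h u₀ ≠ 1 := fun h e => hu₀1 (Subtype.ext (by
        have := congrArg (hK.conjU h⁻¹) e
        rwa [hK.conjU_conjU, mul_inv_cancel, hK.conjU_one, map_one] at this))
      rintro (_ | h) (_ | k) e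
      · rfl
      · exact absurd (congrArg Subtype.val e).symm (hne1 k)
      · exact absurd (congrArg Subtype.val e) (hne1 h)
      · have e0 : hK.conjU h u₀ = hK.conjU k u₀ := congrArg Subtype.val e
        have e' := congrArg (hK.conjU h⁻¹) e0
        rw [hK.conjU_conjU, mul_inv_cancel, hK.conjU_one, hK.conjU_conjU] at e'
        by_contra hhk
        have hne' : ((k * h⁻¹ : H) : G) ≠ 1 := fun h1 =>
          hhk (congrArg some (mul_inv_eq_one.mp (Subtype.ext h1)).symm)
        refine hu₀1 (Subtype.ext (Subtype.ext (kernel_free hK hZ (k * h⁻¹).2 hne' u₀.2 ?_)))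
        have e2 : ((k * h⁻¹ : H) : G)⁻¹ * (u₀ : G) * ((k * h⁻¹ : H) : G) = u₀ :=
          (congrArg Subtype.val e').symm
        conv_lhs => rw [← e2]
        group
    have h1 := Nat.card_le_card_of_injective f hf
    rwa [Finite.card_option, hd] at h1
  have hT2big : 2 * e + 3 ≤ ∑ i, z i ^ 2 := by
    have h1 : 1 ≤ (Finset.univ.filter fun i => z i = 1).card :=
      Finset.card_pos.mpr ⟨l₀, Finset.mem_filter.mpr ⟨Finset.mem_univ _, hl₀⟩⟩
    have h2 : d + 1 ≤ (commutator U).index := by
      rw [hidx1]; have := Nat.le_mul_of_pos_left d h1; omega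
    have h3 := (commutator U).card_mul_index
    rw [← hqdef, hT2] at h3
    have h4 := Nat.mul_le_mul hderived h2
    rw [h3] at h4
    have h5 : d * (d + 2) ≤ d * ∑ i, z i ^ 2 := by nlinarith
    have := Nat.le_of_mul_le_mul_left h5 (by omega)
    omega
  -- induced functions
  let F : ι → G → ℂ := fun i => indFun U (i.out.1 : U → ℂ)
  have hFcf : ∀ i, IsClassFunction G (F i) := fun i => isClassFunction_indFun _ _
  have hFch : ∀ i, IsCharacter G (F i) := fun i =>
    isCharacter_indFun _ (isCharacter_of_isIrr i.out.1.2)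
  have hcG : Nat.card G = (q + 1) * q * d := by
    rw [← Subgroup.index_mul_card N, hidx, ← Nat.card_congr ψ, Nat.card_prod, hd, mul_assoc]
  have hUidx : (U.index : ℂ) = ((q : ℂ) + 1) * d := by
    have h1 := U.index_mul_card
    rw [hcG, ← hqdef] at h1
    have h2 : U.index = (q + 1) * d := by
      have hqpos : 0 < q := Nat.card_pos
      exact Nat.eq_of_mul_eq_mul_right hqpos (h1.trans (by ring))
    rw [h2]; push_cast; rfl
  have hFone : ∀ i, F i 1 = ((q : ℂ) + 1) * d * z i := fun i => by
    show indFun U _ 1 = _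
    rw [indFun_one, hUidx, hzone]
  have hFU : ∀ i (u : U), u ≠ 1 → F i u = ∑ h : H, (rep (i, h) : U → ℂ) u := by
    intro i u hu
    have hclass := isClassFunction_of_isIrr i.out.1.2
    have h0 : ∀ x : G, x ∉ N → extendByZero U (i.out.1 : U → ℂ) (x⁻¹ * u * x) = 0 := fun x hx =>
      extendByZero_not_mem _ _ fun hm => hx (hfix u hu x (hUN hm))
    show (Nat.card U : ℂ)⁻¹ * ∑ x : G, _ = _
    rw [← Finset.sum_subset (Finset.subset_univ (Finset.univ.filter fun x => x ∈ N))
      (fun x _ hx => h0 x fun h => hx (Finset.mem_filter.mpr ⟨Finset.mem_univ x, h⟩)),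
      Finset.sum_subtype (p := (· ∈ N)) _ (by simp), sumN]
    have hval : ∀ (v : U) (h : H), extendByZero U (i.out.1 : U → ℂ)
        (((ψ (v, h) : N) : G)⁻¹ * u * ((ψ (v, h) : N) : G)) = (rep (i, h) : U → ℂ) u := by
      intro v h
      have hm : ((v⁻¹ * u * v : U) : G) ∈ U := (v⁻¹ * u * v).2
      have e1 : (((ψ (v, h) : N) : G)⁻¹ * u * ((ψ (v, h) : N) : G))
          = ((hK.conjU h (v⁻¹ * u * v) : U) : G) := by
        simp [hψ, IsKernel.conjU, mul_assoc]
      rw [e1, extendByZero_coe, hrepapp, map_mul, map_mul, map_inv]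
      have := hclass (hK.conjU h u) (hK.conjU h v)⁻¹
      simpa using this
    simp only [hval, Finset.sum_const, Finset.card_univ, ← Nat.card_eq_fintype_card, nsmul_eq_mul,
      ← Finset.mul_sum, ← hqdef]
    rw [← mul_assoc, inv_mul_cancel₀ hq0, one_mul]
  have hsum0 : ∀ χ : IrrCharacter U, χ ≠ one1 → ∑ u : U, conj ((χ : U → ℂ) u) = 0 := by
    intro χ hχ
    have h1 := classInner_irr_ne isIrrCharacter_one χ.2 (fun e => hχ (Subtype.ext e.symm))
    rw [classInner, mul_eq_zero, or_iff_right (inv_ne_zero (card_ne_zero_complex U))] at h1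
    simpa using h1
  have hout : ∀ i : ι, i.out.1 ≠ one1 := fun i e => i.out.2 (congrArg Subtype.val e)
  have hrep1 : ∀ i : ι, rep (i, 1) = i.out.1 := fun i =>
    Subtype.ext (funext fun u => by rw [hrepapp, hK.conjU_one])
  have hFF : ∀ i j, classInner (F i) (F j) = (if i = j then 1 else 0) + (d : ℂ) * z i * z j := by
    intro i j
    rw [classInner_indFun_right U _ (hFcf i), classInner, ← hqdef]
    have h3 : ∀ u : U, F i u * conj ((j.out.1 : U → ℂ) u) =
        (∑ h : H, (rep (i, h) : U → ℂ) u * conj ((j.out.1 : U → ℂ) u))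
          + if u = 1 then (q : ℂ) * d * z i * z j else 0 := by
      intro u
      rw [← Finset.sum_mul]
      split_ifs with hu
      · subst hu
        rw [OneMemClass.coe_one, hFone, hzone, map_natCast]
        simp only [hrepapp, map_one, hzone, Finset.sum_const, Finset.card_univ,
          ← Nat.card_eq_fintype_card, hd, nsmul_eq_mul]
        ring
      · rw [hFU i u hu, add_zero]
    rw [Finset.sum_congr rfl fun u _ => h3 u, Finset.sum_add_distrib, Finset.sum_ite_eq',
      if_pos (Finset.mem_univ _), Finset.sum_comm, mul_add, Finset.mul_sum]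
    congr 1
    · rw [Finset.sum_congr rfl fun h _ => show (q : ℂ)⁻¹ * _ =
        classInner (rep (i, h) : U → ℂ) (j.out.1 : U → ℂ) from rfl]
      simp only [classInner_irrCharacter, ← hrep1 j, hrepinj.eq_iff, Prod.mk.injEq]
      rw [Finset.sum_eq_single (1 : H) (fun h _ hh => if_neg fun hc => hh hc.2) (by simp)]
      simp
    · rw [← mul_assoc, ← mul_assoc, ← mul_assoc, inv_mul_cancel₀ hq0, one_mul]
  let L : (H →* ℂˣ) → G → ℂ := fun l => indFun N fun n => (l (π n) : ℂ)
  have hLcf : ∀ l, IsClassFunction G (L l) := fun l => isClassFunction_indFun _ _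
  have hLch : ∀ l, IsCharacter G (L l) := fun l =>
    isCharacter_indFun _ (isCharacter_of_isIrr (isIrrCharacter_linear (l.comp π)))
  have hLone : ∀ l, L l 1 = (q : ℂ) + 1 := fun l => by
    show indFun N _ 1 = _
    rw [indFun_one, hidx]; simp
  have hLU : ∀ l (u : U), u ≠ 1 → L l u = 1 := by
    intro l u hu
    have hval : ∀ x : G, extendByZero N (fun n => (l (π n) : ℂ)) (x⁻¹ * u * x) =
        if x ∈ N then 1 else 0 := by
      intro x
      by_cases hx : x ∈ N
      · have hm : x⁻¹ * (u : G) * x ∈ U := by simpa using hK.conj _ (inv_mem hx) _ u.2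
        rw [if_pos hx, extendByZero_mem _ _ (hUN hm), hπU _ hm, map_one, Units.val_one]
      · rw [if_neg hx, extendByZero_not_mem _ _ fun hm => hx (hfix u hu x hm)]
    show (Nat.card N : ℂ)⁻¹ * _ = 1
    rw [Finset.sum_congr rfl fun x _ => hval x, Finset.sum_boole, ← Fintype.card_subtype,
      ← Nat.card_eq_fintype_card]
    exact inv_mul_cancel₀ (card_ne_zero_complex N)
  have hLH : ∀ l (h : H), h ≠ 1 → L l h = (l h : ℂ) + conj (l h : ℂ) := by
    intro l h hh
    have hconj : conj (l h : ℂ) = (l h⁻¹ : ℂ) := by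
      have := linear_conj_mul l h
      rw [map_inv, Units.val_inv_eq_inv_val]
      exact eq_inv_of_mul_eq_one_right this
    have hsh : s⁻¹ * (h : G) * s = (h : G)⁻¹ := by
      have := hinv _ (inv_mem h.2)
      rw [inv_inv] at this
      nth_rewrite 1 [← this]
      simp [mul_assoc]
    have hπconj : ∀ (n : N) (k : H), π (n⁻¹ * ⟨(k : G), hHN k⟩ * n) = k := fun n k => by
      rw [map_mul, map_mul, map_inv, hπH]
      exact Subtype.ext (by
        simp only [Subgroup.coe_mul, Subgroup.coe_inv]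
        rw [mul_assoc, hHcomm k (π n), inv_mul_cancel_left])
    have hval : ∀ x : G, extendByZero N (fun n => (l (π n) : ℂ)) (x⁻¹ * h * x) =
        (if x ∈ N then (l h : ℂ) else 0) + if s⁻¹ * x ∈ N then (l h⁻¹ : ℂ) else 0 := by
      intro x
      by_cases hx : x ∈ N
      · have hnot : ¬ s⁻¹ * x ∈ N := fun hm => hsN (inv_mem_iff.mp (by
          simpa using mul_mem hm (inv_mem hx)))
        rw [if_pos hx, if_neg hnot, add_zero,
          extendByZero_mem _ _ (mul_mem (mul_mem (inv_mem hx) (hHN h)) hx)]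
        exact congrArg (fun k => ((l k : ℂˣ) : ℂ)) (hπconj ⟨x, hx⟩ h)
      · rw [if_neg hx, zero_add]
        by_cases hm : s⁻¹ * x ∈ N
        · have hxe : x⁻¹ * (h : G) * x = (s⁻¹ * x)⁻¹ * (h⁻¹ : H) * (s⁻¹ * x) := by
            rw [Subgroup.coe_inv, ← hsh]; simp [mul_assoc]
          rw [if_pos hm, hxe, extendByZero_mem _ _
            (mul_mem (mul_mem (inv_mem hm) (hHN h⁻¹)) hm)]
          exact congrArg (fun k => ((l k : ℂˣ) : ℂ)) (hπconj ⟨_, hm⟩ h⁻¹)
        · rw [if_neg hm, extendByZero_not_mem _ _ fun hm' => hm (hswap h hh x hx hm')]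
    have hcard2 : (Finset.univ.filter fun x : G => s⁻¹ * x ∈ N).card = Nat.card N := by
      rw [← Fintype.card_subtype, ← Nat.card_eq_fintype_card]
      exact Nat.card_congr (Equiv.subtypeEquiv (Equiv.mulLeft s⁻¹) fun x => Iff.rfl)
    show (Nat.card N : ℂ)⁻¹ * _ = _
    rw [Finset.sum_congr rfl fun x _ => hval x, Finset.sum_add_distrib, ← Finset.sum_filter,
      ← Finset.sum_filter, Finset.sum_const, Finset.sum_const, hcard2, ← Fintype.card_subtype,
      ← Nat.card_eq_fintype_card, nsmul_eq_mul, nsmul_eq_mul, ← mul_add, hconj]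
    exact inv_mul_cancel_left₀ (card_ne_zero_complex N) _
  -- inner products
  have hinnerL : ∀ l (θ : G → ℂ), IsClassFunction G θ → classInner (L l) θ =
      ((q : ℂ) * d)⁻¹ * ∑ h : H, (l h : ℂ) * ∑ u : U, conj (θ ((u : G) * h)) := by
    intro l θ hθ
    rw [show classInner (L l) θ = _ from classInner_indFun N _ hθ, classInner, hcN, sumN]
    simp only [hπ, hψ, Finset.mul_sum]
  have hLsum : ∀ m (h : H), ∑ u : U, conj (L m ((u : G) * h))
      = (q : ℂ) * ((m h : ℂ) + conj (m h : ℂ)) := by
    intro m h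
    by_cases hh : h = 1
    · subst hh
      rw [← Finset.add_sum_erase _ _ (Finset.mem_univ (1 : U)), Finset.sum_congr rfl
        (fun u hu => by
          rw [OneMemClass.coe_one, mul_one, hLU m u (Finset.ne_of_mem_erase hu), map_one])]
      simp [hLone, hqdef, Nat.card_eq_fintype_card, Finset.card_erase_of_mem,
        Nat.cast_sub (Fintype.card_pos (α := U))]
      ring
    · rw [Finset.sum_congr rfl fun u _ => by rw [hcf _ (hLcf m) u h hh, hLH m h hh, map_add,
        Complex.conj_conj]]
      rw [Finset.sum_const, Finset.card_univ, nsmul_eq_mul, ← Nat.card_eq_fintype_card, add_comm]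
  haveI : Finite (H →* ℂˣ) := Finite.of_injective (lin (H := H)) fun a b e =>
    MonoidHom.ext fun g => Units.ext (congrFun (congrArg Subtype.val e) g)
  haveI := Fintype.ofFinite (H →* ℂˣ)
  have hLL : ∀ l m, classInner (L l) (L m) =
      (if l = m then 1 else 0) + if l = m⁻¹ then 1 else 0 := by
    intro l m
    rw [hinnerL l _ (hLcf m)]
    simp only [hLsum, mul_add, Finset.sum_add_distrib, mul_left_comm (_ : ℂ) (q : ℂ),
      ← Finset.mul_sum, sum_hom_mul, sum_hom_mul_conj, hd]
    split_ifs <;> field_simp <;> norm_num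
  have hlinv : ∀ l : H →* ℂˣ, l = l⁻¹ → l = 1 := fun l e => MonoidHom.ext fun h => by
    have h1 : l h * l h = 1 := by
      nth_rewrite 1 [e]; rw [MonoidHom.inv_apply, inv_mul_cancel]
    have h2 : l h ^ d = 1 := by rw [← hd, ← map_pow, pow_card_eq_one', map_one]
    rwa [he, pow_succ, pow_mul, pow_two, h1, one_pow, one_mul] at h2
  have hi1 : (1 : H →* ℂˣ)⁻¹ = 1 := MonoidHom.ext fun _ => inv_one
  have hii : ∀ l : H →* ℂˣ, l⁻¹⁻¹ = l := fun l => MonoidHom.ext fun _ => inv_inv _
  let one : G → ℂ := fun _ => 1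
  have h1irr : IsIrrCharacter G one := isIrrCharacter_one
  have hL1 : ∀ l, classInner (L l) one = if l = 1 then 1 else 0 := by
    intro l
    rw [hinnerL l _ (fun _ _ => rfl)]
    have h0 := sum_hom_mul_conj l (1 : H →* ℂˣ)
    simp only [MonoidHom.one_apply, Units.val_one, map_one, mul_one] at h0
    simp only [one, map_one, Finset.sum_const, Finset.card_univ, nsmul_eq_mul, mul_one,
      ← Nat.card_eq_fintype_card, ← hqdef, ← Finset.sum_mul, h0, hd]
    split_ifs <;> field_simp <;> norm_num
  have hLirr : ∀ l, l ≠ 1 → IsIrrCharacter G (L l) := fun l hl =>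
    isIrrCharacter_of_norm_one (hLch l) (by
      rw [hLL, if_pos rfl, if_neg fun e => hl (hlinv l e), add_zero])
  have hLF : ∀ l i, classInner (L l) (F i) = (z i : ℂ) := by
    intro l i
    rw [classInner_indFun_right U _ (hLcf l), classInner, ← hqdef]
    have h3 : ∀ u : U, L l u * conj ((i.out.1 : U → ℂ) u) =
        conj ((i.out.1 : U → ℂ) u) + if u = 1 then (q : ℂ) * z i else 0 := by
      intro u
      split_ifs with hu
      · subst hu
        rw [OneMemClass.coe_one, hLone, hzone, map_natCast]; ring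
      · rw [hLU l u hu, one_mul, add_zero]
    rw [Finset.sum_congr rfl fun u _ => h3 u, Finset.sum_add_distrib, hsum0 _ (hout i), zero_add,
      Finset.sum_ite_eq', if_pos (Finset.mem_univ _), inv_mul_cancel_left₀ hq0]
  have h1F : ∀ i, classInner one (F i) = 0 := by
    intro i
    rw [classInner_indFun_right U _ (isClassFunction_of_isIrr h1irr), classInner]
    simp only [one, one_mul, hsum0 _ (hout i), mul_zero]
  choose nat hnat using fun (θ : IrrCharacter G) (i : ι) =>
    classInner_natCast (isCharacter_of_isIrr θ.2) (hFch i)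
  let inR : IrrCharacter G → Prop := fun θ => ∀ l, classInner (θ : G → ℂ) (L l) = 0
  let A : IrrCharacter G → ι → ℕ := fun θ i => if inR θ then nat θ i else 0
  let θone : IrrCharacter G := ⟨one, h1irr⟩
  have hn1 : ∀ i, nat θone i = 0 := fun i =>
    Nat.cast_injective (R := ℂ) ((hnat θone i).symm.trans ((h1F i).trans Nat.cast_zero.symm))
  -- the second constituent of `L 1`
  choose m hm using fun θ : IrrCharacter G =>
    classInner_natCast (isCharacter_of_isIrr θ.2) (hLch 1)
  have hm1 : m θone = 1 := by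
    apply Nat.cast_injective (R := ℂ)
    rw [← hm, classInner_conj_symm, show classInner (L 1) (θone : G → ℂ) = _ from hL1 1, if_pos rfl,
      map_one, Nat.cast_one]
  have hmsq : ∑ θ : IrrCharacter G, m θ * m θ = 2 := by
    apply Nat.cast_injective (R := ℂ)
    have h1 := classInner_eq_sum (φ := L 1) (hLcf 1)
    rw [hLL, if_pos rfl, hi1, if_pos rfl] at h1
    push_cast
    rw [show (2 : ℂ) = 1 + 1 by norm_num, h1]
    refine Finset.sum_congr rfl fun θ _ => ?_
    rw [classInner_conj_symm (θ : G → ℂ) (L 1), hm]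
    simp
  obtain ⟨θ₀, hθ₀ne, hθ₀, hother⟩ : ∃ θ₀, θ₀ ≠ θone ∧ m θ₀ = 1 ∧
      ∀ θ, θ ≠ θone → θ ≠ θ₀ → m θ = 0 := by
    rw [← Finset.add_sum_erase _ _ (Finset.mem_univ θone), hm1] at hmsq
    obtain ⟨θ₀, hθ₀, hne⟩ := Finset.exists_ne_zero_of_sum_ne_zero
      (show ∑ θ ∈ Finset.univ.erase θone, m θ * m θ ≠ 0 by omega)
    rw [← Finset.add_sum_erase _ _ hθ₀] at hmsq
    have h0 : m θ₀ ≠ 0 := fun h => hne (by simp [h])
    have h1 : m θ₀ = 1 := by
      by_contra h
      have : 2 * 2 ≤ m θ₀ * m θ₀ := Nat.mul_le_mul (by omega) (by omega)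
      omega
    rw [h1] at hmsq
    refine ⟨θ₀, Finset.ne_of_mem_erase hθ₀, h1, fun θ hθ hθ' => ?_⟩
    have hz := Finset.sum_eq_zero_iff.mp (show ∑ θ ∈ (Finset.univ.erase θone).erase θ₀,
      m θ * m θ = 0 by omega) θ (Finset.mem_erase.mpr ⟨hθ', Finset.mem_erase.mpr ⟨hθ, Finset.mem_univ _⟩⟩)
    exact (mul_self_eq_zero.mp hz)
  have hnθ₀ : ∀ i, nat θ₀ i = z i := by
    intro i
    apply Nat.cast_injective (R := ℂ)
    have h1 := classInner_eq_sum (φ := L 1) (hFcf i)
    rw [hLF, Finset.sum_eq_single θ₀] at h1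
    · rw [classInner_conj_symm (θ₀ : G → ℂ) (L 1), hm, hθ₀, ← classInner_conj_symm (F i)
        (θ₀ : G → ℂ), hnat] at h1
      simpa using h1.symm
    · intro θ _ hne
      by_cases h : θ = θone
      · subst h
        rw [← classInner_conj_symm (F i) (θone : G → ℂ), hnat, hn1, Nat.cast_zero, mul_zero]
      · rw [classInner_conj_symm (θ : G → ℂ) (L 1), hm, hother θ h hne, Nat.cast_zero, map_zero,
          zero_mul]
    · exact fun h => absurd (Finset.mem_univ _) h
  -- the characters outside the span of the exceptional ones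
  let S : G → ℂ := ∑ l : H →* ℂˣ, L l
  have hScf : IsClassFunction G S := isClassFunction_sum _ _ fun l _ => hLcf l
  have hSL : ∀ l, classInner (L l) S = 2 := fun l => by
    rw [classInner_sum_right, Finset.sum_congr rfl fun k _ => hLL l k, Finset.sum_add_distrib,
      Finset.sum_ite_eq, if_pos (Finset.mem_univ _)]
    rw [Finset.sum_congr rfl fun (k : H →* ℂˣ) _ => show (if l = k⁻¹ then (1 : ℂ) else 0) =
      if k = l⁻¹ then (1 : ℂ) else 0 from if_congr ⟨fun e => by rw [e, hii],
        fun e => by rw [e, hii]⟩ rfl rfl, Finset.sum_ite_eq', if_pos (Finset.mem_univ _)]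
    norm_num
  have hcardH : (Fintype.card (H →* ℂˣ) : ℂ) = d := by
    letI : CommGroup H := { (inferInstance : Group H) with mul_comm := hHc.is_comm.comm }
    have : NeZero (Monoid.exponent H) := ⟨Monoid.exponent_ne_zero_of_finite⟩
    have : NeZero (Monoid.exponent H : ℂ) := NeZero.charZero
    rw [← Nat.card_eq_fintype_card, CommGroup.card_monoidHom_of_hasEnoughRootsOfUnity, hd]
  have hLtheta : ∀ θ : IrrCharacter G, ¬ inR θ → θ ≠ θone → θ ≠ θ₀ →
      ∃ l, l ≠ 1 ∧ (θ : G → ℂ) = L l := by
    intro θ hR h1 h0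
    obtain ⟨l, hl⟩ := not_forall.mp hR
    refine ⟨l, fun e => hl ?_, ?_⟩
    · subst e; rw [hm, hother θ h1 h0, Nat.cast_zero]
    · by_contra h
      by_cases hl1 : l = 1
      · subst hl1; exact hl (by rw [hm, hother θ h1 h0, Nat.cast_zero])
      · exact hl (classInner_irr_ne θ.2 (hLirr l hl1) h)
  have hθ₀R : ¬ inR θ₀ := fun h => by
    have := h 1
    rw [hm, hθ₀, Nat.cast_one] at this
    exact one_ne_zero this
  have hθ1R : ¬ inR θone := fun h => by
    have := h 1
    rw [hm, hm1, Nat.cast_one] at this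
    exact one_ne_zero this
  let W := Finset.univ.filter fun θ : IrrCharacter G => ¬ inR θ ∧ θ ≠ θone
  have hθ₀W : θ₀ ∈ W := Finset.mem_filter.mpr ⟨Finset.mem_univ _, hθ₀R, hθ₀ne⟩
  have hWn : ∀ θ ∈ W, ∀ i, nat θ i = z i := by
    intro θ hθ i
    obtain ⟨-, hR, h1⟩ := Finset.mem_filter.mp hθ
    by_cases h0 : θ = θ₀
    · rw [h0]; exact hnθ₀ i
    obtain ⟨l, -, hl⟩ := hLtheta θ hR h1 h0
    apply Nat.cast_injective (R := ℂ)
    rw [← hnat, hl, hLF]
  have hWcard : W.card = e + 1 := by
    have hSS : classInner S S = 2 * (d : ℂ) := by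
      rw [classInner_sum_left, Finset.sum_congr rfl fun l _ => hSL l, Finset.sum_const,
        Finset.card_univ, nsmul_eq_mul, hcardH, mul_comm]
    have hc0 : classInner (θ₀ : G → ℂ) S = 1 := by
      rw [classInner_sum_right, Finset.sum_eq_single (1 : H →* ℂˣ) (fun l _ hl => ?_) (by simp),
        hm, hθ₀, Nat.cast_one]
      refine classInner_irr_ne θ₀.2 (hLirr l hl) fun h => ?_
      have h2 := hm θ₀
      rw [h, hLL, if_neg hl, if_neg (by rwa [hi1]), hθ₀, add_zero, Nat.cast_one] at h2
      exact zero_ne_one h2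
    have hc1 : classInner (θone : G → ℂ) S = 1 := by
      rw [classInner_sum_right, Finset.sum_congr rfl fun l _ => by
        rw [classInner_conj_symm (L l) (θone : G → ℂ),
          show classInner (L l) (θone : G → ℂ) = _ from hL1 l]]
      simp [apply_ite (starRingEnd ℂ)]
    have h1 := classInner_eq_sum (φ := S) hScf
    rw [hSS, ← Finset.add_sum_erase _ _ (Finset.mem_univ θone),
      ← Finset.sum_subset (show W ⊆ Finset.univ.erase θone from fun θ hθ =>
        Finset.mem_erase.mpr ⟨(Finset.mem_filter.mp hθ).2.2, Finset.mem_univ _⟩) (fun θ hθ hW => by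
        have hR : inR θ := by
          by_contra h
          exact hW (Finset.mem_filter.mpr ⟨Finset.mem_univ _, h, Finset.ne_of_mem_erase hθ⟩)
        rw [classInner_conj_symm (θ : G → ℂ) S, classInner_sum_right,
          Finset.sum_eq_zero fun l _ => hR l, map_zero, zero_mul]),
      ← Finset.add_sum_erase _ _ hθ₀W, Finset.sum_congr rfl (s₁ := W.erase θ₀) fun θ hθ => by
        obtain ⟨-, hR, hθ1⟩ := Finset.mem_filter.mp (Finset.mem_of_mem_erase hθ)
        obtain ⟨l, -, hl⟩ := hLtheta θ hR hθ1 (Finset.ne_of_mem_erase hθ)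
        rw [classInner_conj_symm (θ : G → ℂ) S, hl, hSL],
      classInner_conj_symm (θone : G → ℂ) S, classInner_conj_symm (θ₀ : G → ℂ) S, hc0, hc1] at h1
    simp only [map_one, map_ofNat, mul_one, Finset.sum_const, nsmul_eq_mul] at h1
    have h2 : 2 * d = 1 + (1 + (W.erase θ₀).card * (2 * 2)) := by exact_mod_cast h1
    rw [Finset.card_erase_of_mem hθ₀W] at h2
    have := Finset.card_pos.mpr ⟨θ₀, hθ₀W⟩
    omega
  -- the images of the induced characters
  let U' := U.subgroupOf N
  haveI := Fintype.ofFinite U'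
  let ε : U' ≃* U := Subgroup.subgroupOfEquivOfLe hUN
  let X : ι → N → ℂ := fun i => indFun U' ((i.out.1 : U → ℂ) ∘ ε)
  have hXmem : ∀ i, X i ∈ Dade.relChars U' := fun i => Dade.ind_mem_relChars hC
    (isIrrCharacter_comp i.out.1.2 ε.toMonoidHom ε.surjective) fun h => i.out.2 (funext fun u => by
      obtain ⟨w, rfl⟩ := ε.surjective u
      exact congrFun h w)
  have hXone : ∀ i, X i 1 = (U'.index : ℂ) * z i := fun i => by
    show indFun U' _ 1 = _
    rw [indFun_one, Function.comp_apply, map_one, hzone]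
  have hXF : ∀ i, indFun N (X i) = F i := by
    intro i
    refine ext_of_classInner (isClassFunction_indFun _ _) (hFcf i) fun χ => ?_
    have hχ := isClassFunction_of_isIrr χ.2
    rw [classInner_indFun N _ hχ, classInner_indFun U' _ (fun a b => hχ a.1 b.1),
      classInner_indFun U _ hχ]
    simp only [classInner]
    rw [Nat.card_congr ε.toEquiv]
    congr 1
    exact Fintype.sum_equiv ε.toEquiv _ _ fun x => rfl
  obtain ⟨u, hugen, huinner, hτu⟩ := Dade.exists_images hcoh
  have hXirr : ∀ i, classInner (X i) (X i) = 1 := fun i => classInner_irr_self (hXmem i).1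
  choose ρ σ hσ hρ using fun i => CharClifford.exists_irr_of_generalized_norm_one
    (hugen _ (hXmem i)) ((huinner _ (hXmem i) _ (hXmem i)).trans (hXirr i))
  have hUidx0 : (U'.index : ℂ) ≠ 0 := Nat.cast_ne_zero.mpr Subgroup.index_ne_zero_of_finite
  have hXinj : Function.Injective X := by
    intro i j hij
    have hz : z i = z j := by
      have h1 := hXone i
      rw [hij, hXone] at h1
      exact (Nat.cast_injective (R := ℂ) (mul_left_cancel₀ hUidx0 h1)).symm
    have h1 := hFF i i
    conv_lhs at h1 => arg 2; rw [← hXF, hij, hXF]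
    rw [hFF, if_pos rfl, hz] at h1
    by_contra hne
    rw [if_neg hne] at h1
    simp at h1
  have hρinj : Function.Injective ρ := by
    intro i j hij
    by_contra hne
    have h1 := huinner _ (hXmem i) _ (hXmem j)
    rw [hρ i, hρ j, hij, classInner_smul_left, classInner_smul_right, classInner_irr_self (ρ j).2,
      classInner_irr_ne (hXmem i).1 (hXmem j).1 (fun h => hne (hXinj h)), mul_one] at h1
    rcases hσ i with h | h <;> rcases hσ j with h' | h' <;> rw [h, h'] at h1 <;> simp at h1
  let bb : IrrCharacter G → ι → ℤ := fun θ i => if θ = ρ i then σ i else 0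
  let cc : IrrCharacter G → ℤ := fun θ => (nat θ l₀ : ℤ) - bb θ l₀
  have hrow : ∀ θ i, (nat θ i : ℤ) = cc θ * z i + bb θ i := by
    intro θ i
    have h1 := hτu _ (hXmem i) _ (hXmem l₀) (z i) (by rw [hXone, hXone, hl₀]; push_cast; ring)
    have h2 : indFun N (X i - (z i) • X l₀) = F i - (z i : ℂ) • F l₀ := by
      rw [← Nat.cast_smul_eq_nsmul ℂ, sub_eq_add_neg, indFun_add, ← neg_smul, indFun_smul, hXF,
        hXF, neg_smul, ← sub_eq_add_neg]
    have hin : ∀ j, classInner (θ : G → ℂ) (u (X j)) = (bb θ j : ℂ) := by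
      intro j
      rw [hρ j, classInner_smul_right, classInner_irrCharacter, map_intCast]
      by_cases h : θ = ρ j <;> simp [bb, h]
    have h3 : classInner (θ : G → ℂ) (F i - (z i : ℂ) • F l₀) =
        classInner (θ : G → ℂ) (u (X i) - (z i : ℂ) • u (X l₀)) := by
      rw [← h2]
      rw [Nat.cast_smul_eq_nsmul ℂ]
      exact congrArg _ h1
    rw [classInner_sub_right, classInner_sub_right, classInner_smul_right, classInner_smul_right,
      hnat, hnat, hin, hin, map_natCast] at h3
    have h4 : (nat θ i : ℤ) - z i * nat θ l₀ = bb θ i - z i * bb θ l₀ := by exact_mod_cast h3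
    simp only [cc]
    linarith
  have hnn : ∀ i, ∑ θ : IrrCharacter G, (nat θ i : ℤ) * nat θ i = 1 + d * z i * z i := by
    intro i
    have h1 := classInner_eq_sum (φ := F i) (hFcf i)
    rw [hFF, if_pos rfl, Finset.sum_congr rfl fun θ _ => by
      rw [classInner_conj_symm (θ : G → ℂ) (F i), hnat]] at h1
    simp only [map_natCast, ← Nat.cast_mul] at h1
    exact_mod_cast h1.symm
  have hii : ∀ i, (∑ θ : IrrCharacter G, cc θ ^ 2) * ((z i : ℤ) ^ 2) +
      2 * (σ i * cc (ρ i)) * z i = d * (z i : ℤ) ^ 2 := by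
    intro i
    have h1 := hnn i
    have h2 : ∀ θ : IrrCharacter G, (nat θ i : ℤ) * nat θ i = cc θ ^ 2 * (z i : ℤ) ^ 2 +
        (if θ = ρ i then 2 * (σ i * cc θ) * z i + 1 else 0) := by
      intro θ
      rw [hrow θ i]
      by_cases h : θ = ρ i
      · rcases hσ i with hs | hs <;> simp [bb, h, hs] <;> ring
      · simp [bb, h]; ring
    rw [Finset.sum_congr rfl fun θ _ => h2 θ, Finset.sum_add_distrib, Finset.sum_ite_eq',
      if_pos (Finset.mem_univ _), ← Finset.sum_mul] at h1
    linarith
  have hCl := hii l₀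
  rw [hl₀, Nat.cast_one] at hCl
  have hck : ∀ i, σ i * cc (ρ i) = σ l₀ * cc (ρ l₀) * z i := by
    intro i
    have hzi : (z i : ℤ) ≠ 0 := Int.natCast_ne_zero.mpr (charDegree_pos i.out.1.2).ne'
    refine mul_right_cancel₀ (mul_ne_zero two_ne_zero hzi) ?_
    linear_combination hii i - (z i : ℤ) ^ 2 * hCl
  obtain ⟨θ, hR, hc, hθρ⟩ : ∃ θ, inR θ ∧ cc θ ≠ 0 ∧ ∀ i, θ ≠ ρ i := by
    by_contra hno
    push Not at hno
    let Rset : Finset (IrrCharacter G) := Finset.univ.image ρ
    have hWc : ∀ θ ∈ W, θ ∉ Rset ∧ cc θ = 1 := by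
      intro θ hθ
      have hnot : ∀ k, θ ≠ ρ k := by
        intro k hk
        obtain ⟨i, hik⟩ : ∃ i, i ≠ k := by
          by_contra hall
          push Not at hall
          rw [Finset.sum_eq_single l₀ (fun j _ hj => absurd ((hall j).trans (hall l₀).symm) hj)
            (fun h => absurd (Finset.mem_univ _) h), hl₀] at hT2big
          omega
        have h1 := hrow θ i
        have h2 := hrow θ k
        rw [hWn θ hθ] at h1 h2
        have hb : bb θ i = 0 := if_neg fun h => hik (hρinj (h.symm.trans hk))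
        have hb2 : bb θ k = σ k := if_pos hk
        rw [hb, add_zero] at h1
        have hc1 : cc θ = 1 := mul_right_cancel₀
          (Int.natCast_ne_zero.mpr (charDegree_pos i.out.1.2).ne')
          (show cc θ * (z i : ℤ) = 1 * (z i : ℤ) by rw [one_mul]; exact h1.symm)
        rw [hc1, one_mul, hb2] at h2
        rcases hσ k with h | h <;> omega
      refine ⟨fun h => ?_, ?_⟩
      · obtain ⟨k, -, hk⟩ := Finset.mem_image.mp h
        exact hnot k hk.symm
      · simp only [cc, bb, if_neg (hnot l₀), hWn θ hθ, hl₀]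
        simp
    have hC : ∑ θ : IrrCharacter G, cc θ ^ 2 =
        (e + 1 : ℤ) + cc (ρ l₀) ^ 2 * (∑ i, z i ^ 2 : ℕ) := by
      rw [← Finset.sum_subset (Finset.subset_univ (W ∪ Rset)) fun θ _ hθ => ?_,
        Finset.sum_union (Finset.disjoint_left.mpr fun θ hθ => (hWc θ hθ).1),
        Finset.sum_congr rfl (g := fun _ => (1 : ℤ)) fun θ hθ => by rw [(hWc θ hθ).2, one_pow],
        Finset.sum_const, hWcard, Finset.sum_image fun x _ y _ h => hρinj h]
      · simp only [nsmul_eq_mul, mul_one, Nat.cast_add, Nat.cast_one, Nat.cast_sum, Nat.cast_pow,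
          Finset.mul_sum]
        congr 1
        refine Finset.sum_congr rfl fun i _ => ?_
        have h1 := congrArg (fun x : ℤ => x ^ 2) (hck i)
        simp only [mul_pow] at h1
        rcases hσ i with hs | hs <;> rcases hσ l₀ with hs' | hs' <;> simp [hs, hs'] at h1 <;>
          linarith
      · simp only [Finset.mem_union, not_or] at hθ
        by_contra hne
        have hne' : cc θ ≠ 0 := fun h => hne (by rw [h]; ring)
        have hnR : ∀ k, θ ≠ ρ k := fun k h =>
          hθ.2 (Finset.mem_image.mpr ⟨k, Finset.mem_univ _, h.symm⟩)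
        by_cases hR : inR θ
        · obtain ⟨k, hk⟩ := hno θ hR hne'
          exact hnR k hk
        · refine hθ.1 (Finset.mem_filter.mpr ⟨Finset.mem_univ _, hR, fun h1 => hne' ?_⟩)
          simp only [cc, bb, if_neg (hnR l₀)]
          rw [h1, hn1]
          simp
    have hT : (2 * (e : ℤ) + 3) ≤ ((∑ i, z i ^ 2 : ℕ) : ℤ) := by exact_mod_cast hT2big
    rw [hC, he] at hCl
    push_cast at hCl hT
    generalize ((∑ i, (z i : ℤ) ^ 2)) = T at hCl hT
    generalize cc (ρ l₀) = y at hCl
    have hy : y ≠ 0 := by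
      rintro rfl
      simp at hCl
      omega
    have h1 : 1 ≤ y ^ 2 := by have := sq_pos_of_ne_zero hy; omega
    have h3 : T - 2 ≤ y ^ 2 * (T - 2) := le_mul_of_one_le_left (by omega) h1
    rcases hσ l₀ with hs | hs <;> rw [hs] at hCl <;> rcases lt_or_gt_of_ne hy with hy' | hy' <;>
      nlinarith
  have hbz : ∀ i, bb θ i = 0 := fun i => if_neg (hθρ i)
  set c : ℕ := nat θ l₀ with hcdef
  have hcc : cc θ = (c : ℤ) := by simp only [cc, hbz, sub_zero, hcdef]
  have hf0 : ∑ u : U, (θ : G → ℂ) u = 0 := by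
    have hθcf := isClassFunction_of_isIrr θ.2
    have hz : (fun h : H => conj (∑ u : U, conj ((θ : G → ℂ) ((u : G) * h)))) = 0 := by
      refine eq_zero_of_forall_classInner_eq_zero (fun g h => ?_) fun χ' hχ' => ?_
      · have : h * g * h⁻¹ = g := by rw [hHc.is_comm.comm h g, mul_inv_cancel_right]
        rw [this]
      · obtain ⟨l, hl⟩ := (lin_bijective fun a b : H => hHc.is_comm.comm a b).2 ⟨χ', hχ'⟩
        have hl' : χ' = fun h : H => (l h : ℂ) := (congrArg Subtype.val hl).symm
        have h1 := hR l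
        rw [classInner_conj_symm, hinnerL l _ hθcf, map_eq_zero,
          mul_eq_zero, or_iff_right (inv_ne_zero (mul_ne_zero hq0 hd0))] at h1
        rw [classInner_conj_symm, hl', classInner, map_eq_zero, mul_eq_zero]
        right
        rw [← h1]
        exact Finset.sum_congr rfl fun h _ => by rw [Complex.conj_conj]
    have := congrFun hz 1
    simpa [map_sum] using this
  have hdegθ : (θ : G → ℂ) 1 = (d : ℂ) * c * ∑ i, ((z i : ℂ)) ^ 2 := by
    have hθcf := isClassFunction_of_isIrr θ.2
    have hres := congrFun (eq_sum_classInner_smul (G := U) (φ := fun u : U => (θ : G → ℂ) u)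
      (fun g h => by
        show (θ : G → ℂ) _ = (θ : G → ℂ) g
        simp only [Subgroup.coe_mul, Subgroup.coe_inv]
        exact hθcf _ _)) 1
    simp only [Finset.sum_apply, Pi.smul_apply, smul_eq_mul, OneMemClass.coe_one] at hres
    rw [sum_irr_orbits one1 rep hrepinj hrepne hrepsurj] at hres
    have h0 : classInner (fun u : U => (θ : G → ℂ) u) (one1 : U → ℂ) = 0 := by
      simp [classInner, one1, hf0]
    have hgi : ∀ i h, classInner (fun u : U => (θ : G → ℂ) u) (rep (i, h) : U → ℂ) = (nat θ i : ℂ) := by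
      intro i h
      rw [← hnat, classInner_indFun_right U _ hθcf]
      simp only [classInner]
      congr 1
      refine Fintype.sum_bijective (hK.conjU h)
        (Finite.surjective_iff_bijective.mp (hK.conjU_surjective h)) _ _ fun u => ?_
      rw [hrepapp]
      congr 1
      have := hθcf (u : G) (h : G)⁻¹
      simpa [IsKernel.conjU] using this.symm
    rw [hres, h0, zero_mul, zero_add, Finset.mul_sum]
    refine Finset.sum_congr rfl fun i _ => ?_
    have hA : (nat θ i : ℂ) = (c : ℂ) * z i := by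
      have := hrow θ i
      rw [hbz, add_zero, hcc] at this
      exact_mod_cast this
    simp only [hgi, hA, hrepapp, map_one, hzone, Finset.sum_const, Finset.card_univ,
      ← Nat.card_eq_fintype_card, hd, nsmul_eq_mul]
    ring
  set T2 := ∑ i, z i ^ 2 with hT2def
  have h1 := charDegree_dvd_card θ.2
  have h2 : charDegree (θ : G → ℂ) = d * c * T2 := by
    apply Nat.cast_injective (R := ℂ)
    rw [← apply_one_eq_charDegree (isCharacter_of_isIrr θ.2), hdegθ, hT2def]
    push_cast; rfl
  rw [h2, hcG, mul_assoc d, mul_comm ((q + 1) * q)] at h1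
  have h3 : T2 ∣ (q + 1) * q :=
    (Dvd.intro_left _ rfl).trans (Nat.dvd_of_mul_dvd_mul_left (by omega) h1)
  have h4 : Nat.Coprime T2 q := by
    rw [hT2, mul_comm]
    exact ((Nat.coprime_add_mul_left_right T2 1 d).mpr (Nat.coprime_one_right _))
  have h5 : T2 ∣ q + 1 := h4.dvd_of_dvd_mul_right h3
  rw [hT2, add_comm 1 (d * T2), add_assoc] at h5
  have h6 : T2 ∣ 2 := (Nat.dvd_add_right (dvd_mul_left T2 d)).mp h5
  have h7 := Nat.le_of_dvd two_pos h6
  have h8 : d * T2 ≤ d * 2 := Nat.mul_le_mul_left d h7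
  omega

open scoped _root_.Classical in
/-- Feit's alternative for odd two-point stabilisers: a small kernel, or a nonabelian `2`-group with
small abelianisation. -/
theorem odd_alternative [Fintype Ω] {a b : Ω} :
    ∀ (d : ℕ) (G : Type u) [Group G] [Finite G] [MulAction G Ω] (U : Subgroup G),
      IsZassenhausGroup G Ω → IsKernel U a b → Group.IsNilpotent U →
      Nat.card ↥(stabilizer G a ⊓ stabilizer G b) = d → Odd d →
      Nat.card U - 1 ≤ 2 * d ∨
        (IsPGroup 2 U ∧ ¬ IsMulCommutative U ∧ (commutator U).index ≤ 4 * d ^ 2 + 1) := by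
  intro d
  induction d using Nat.strong_induction_on with
  | h d ih =>
  intro G _ _ _ U hZ hK hnilU hd hodd
  subst hd
  by_cases hUc : IsMulCommutative U
  · exact Or.inl (abelian_kernel_struct hZ hK hUc).1
  by_cases hcomp : ∃ q : ℕ, q.Prime ∧ q ∣ Nat.card ↥(stabilizer G a ⊓ stabilizer G b) ∧
      ∃ N : Subgroup G, N.Normal ∧ N.index = q ^ (Nat.card G).factorization q
  · obtain ⟨q, hq, hqd, N, hN, hidx⟩ := hcomp
    set d := Nat.card ↥(stabilizer G a ⊓ stabilizer G b) with hd
    haveI := Fact.mk hq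
    haveI := hZ.1
    haveI : IsPretransitive G Ω := by
      haveI := hZ.2.1
      exact isPretransitive_of_is_two_pretransitive
    have hcard := hK.card_eq
    have hq2 : q ≠ 2 := fun e => hodd.not_two_dvd_nat (e ▸ hqd)
    have hnp := not_dvd_pairs hZ hK.ne hodd hq hqd
    have hcU : ¬ q ∣ Nat.card U := fun e => hnp (by
      rw [← hcard, Nat.add_sub_cancel]; exact e.mul_left _)
    have hUN : U ≤ N := by
      intro u hu
      have h1 : orderOf (QuotientGroup.mk' N u) ∣ q ^ (Nat.card G).factorization q := by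
        rw [← hidx, Subgroup.index_eq_card]; exact orderOf_dvd_natCard _
      have h2 : orderOf (QuotientGroup.mk' N u) ∣ Nat.card U :=
        (orderOf_map_dvd _ u).trans (Subgroup.orderOf_dvd_natCard U hu)
      have h3 : Nat.Coprime (q ^ (Nat.card G).factorization q) (Nat.card U) :=
        Nat.Coprime.pow_left _ ((Nat.Prime.coprime_iff_not_dvd hq).mpr hcU)
      have h4 : orderOf (QuotientGroup.mk' N u) = 1 := Nat.eq_one_of_dvd_coprimes h3 h1 h2
      exact (QuotientGroup.eq_one_iff u).mp (orderOf_eq_one_iff.mp h4)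
    have hcU1 : 1 < Nat.card U := by have := two_lt_card hZ hK.ne; omega
    obtain ⟨g, hga, hgb⟩ := exists_map_pair hZ hK.ne hK.ne.symm
    haveI : Nontrivial U := Finite.one_lt_card_iff_nontrivial.mp hcU1
    obtain ⟨⟨u₀, hu₀⟩, hu₀1⟩ := exists_ne (1 : U)
    have hv : g * u₀ * g⁻¹ ∈ N := hN.conj_mem _ (hUN hu₀) g
    have hva : (g * u₀ * g⁻¹) • a ≠ a := by
      intro e
      rw [mul_smul, mul_smul, inv_smul_eq_iff.mpr hgb.symm] at e
      have : u₀ • b = b := MulAction.injective g (e.trans hgb.symm)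
      exact hK.ne (hK.fix_only hu₀ (fun h => hu₀1 (Subtype.ext h)) this).symm
    haveI hNtr : IsPretransitive N Ω := by
      rw [isPretransitive_iff_orbit_eq_univ a]
      refine Set.eq_univ_of_forall fun y => ?_
      by_cases hy : y = a
      · rw [hy]; exact mem_orbit_self _
      · obtain ⟨u, hu, -⟩ := hK.reg_pair _ y hva hy
        exact ⟨⟨(u : G) * (g * u₀ * g⁻¹), mul_mem (hUN u.2) hv⟩, (mul_smul (u : G) _ a).trans hu⟩
    have h2N : IsMultiplyPretransitive N Ω 2 := by
      rw [is_two_pretransitive_iff]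
      intro x y x' y' hxy hxy'
      obtain ⟨g₁, hg₁⟩ := exists_smul_eq N x a
      obtain ⟨g₂, hg₂⟩ := exists_smul_eq N x' a
      have h1 : g₁ • y ≠ a := fun e => hxy (MulAction.injective g₁ (hg₁.trans e.symm))
      have h2 : g₂ • y' ≠ a := fun e => hxy' (MulAction.injective g₂ (hg₂.trans e.symm))
      obtain ⟨u, hu, -⟩ := hK.reg_pair _ _ h1 h2
      refine ⟨g₂⁻¹ * ⟨u, hUN u.2⟩ * g₁, ?_, ?_⟩
      · rw [mul_smul, mul_smul, hg₁, inv_smul_eq_iff, hg₂]
        exact hK.le u.2
      · rw [mul_smul, mul_smul, inv_smul_eq_iff]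
        exact hu
    let V : Subgroup N := U.subgroupOf N
    have hKV : IsKernel V a b :=
      { ne := hK.ne
        le := fun x hx => hK.le (hx : (x : G) ∈ U)
        «conj» := fun x hx u hu => hK.conj (x : G) hx (u : G) hu
        reg := fun y hy => by
          obtain ⟨u, hu, huu⟩ := hK.reg y hy
          refine ⟨⟨⟨u, hUN u.2⟩, u.2⟩, hu, fun w hw => ?_⟩
          exact Subtype.ext (Subtype.ext
            (congrArg Subtype.val (huu ⟨((w : N) : G), w.2⟩ hw) : ((w : N) : G) = u)) }
    have hcV : Nat.card V = Nat.card U := Nat.card_congr (Subgroup.subgroupOfEquivOfLe hUN).toEquiv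
    set d' := Nat.card ↥(stabilizer N a ⊓ stabilizer N b) with hd'
    have hdd : d = d' * q ^ (Nat.card G).factorization q := by
      have h1 := card_of_regular hK.ne U hK.le hK.reg
      have h2 := card_of_regular (G := N) hK.ne V hKV.le hKV.reg
      rw [hcV, ← hd'] at h2
      rw [← hd, ← Subgroup.card_mul_index N, hidx, h2] at h1
      refine Nat.eq_of_mul_eq_mul_left (show 0 < Nat.card Ω * Nat.card U by
        rw [← hcard]; positivity) ?_
      rw [mul_assoc (Nat.card Ω), ← h1]; ring
    have hv1 : 1 ≤ (Nat.card G).factorization q := by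
      refine hq.factorization_pos_of_dvd Nat.card_pos.ne' (hqd.trans ?_)
      exact Subgroup.card_subgroup_dvd_card _
    have h3d : 3 * d' ≤ d := by
      rw [hdd, mul_comm]
      refine Nat.mul_le_mul_left _ (le_trans ?_ (Nat.le_self_pow (by omega) q))
      have := hq.two_le; omega
    have hd'pos : 0 < d' := Nat.card_pos
    by_cases hd1 : d' = 1
    · have hS : Lib.Perm.SharplyTwo N Ω :=
        { trans := fun x y z w hxy hzw => (is_two_pretransitive_iff.mp h2N) hxy hzw
          sharp := fun x y z hyz hy hz => by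
            obtain ⟨k, hky, hkz⟩ := (is_two_pretransitive_iff.mp h2N) hyz hK.ne
            have hbot := Subgroup.card_eq_one.mp hd1
            have hm : k * x * k⁻¹ ∈ stabilizer N a ⊓ stabilizer N b :=
              ⟨show (k * x * k⁻¹) • a = a by rw [mul_smul, mul_smul, inv_smul_eq_iff.mpr hky.symm, hy, hky],
               show (k * x * k⁻¹) • b = b by rw [mul_smul, mul_smul, inv_smul_eq_iff.mpr hkz.symm, hz, hkz]⟩
            rw [hbot, Subgroup.mem_bot] at hm
            exact conj_eq_one_iff.mp hm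
          nontriv := by omega }
      refine (no_regular_in_normal hZ N hN h2N hS.kernel hS.kernel_normal hS.kernel_pretransitive
        (fun x hx c hc => ?_) a).elim
      have h := hS.kernel_stabilizer c
      have hm : (⟨x, hx⟩ : hS.kernel) ∈ stabilizer hS.kernel c := hc
      rw [h, Subgroup.mem_bot] at hm
      exact congrArg Subtype.val hm
    · have hZN : IsZassenhausGroup N Ω := by
        refine ⟨⟨fun h => Subtype.ext (eq_of_smul_eq_smul fun x : Ω => h x)⟩, h2N,
          fun x p₁ p₂ p₃ h12 h23 h13 hp hp' hp'' => Subtype.ext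
            (hZ.2.2.1 (x : G) p₁ p₂ p₃ h12 h23 h13 hp hp' hp''), ?_, fun M hM htr => ?_⟩
        · obtain ⟨x, hx, hx1⟩ := Subgroup.ne_bot_iff_exists_ne_one.mp
            (fun e => hd1 (Subgroup.card_eq_one.mpr e)) |>.imp fun x h => And.intro x.2 h
          exact ⟨x, fun e => hx1 (Subtype.ext e), a, b, hK.ne, hx.1, hx.2⟩
        · by_contra hM'
          push Not at hM'
          refine no_regular_in_normal hZ N hN h2N M hM htr (fun x hx c hc => ?_) a
          have hm : (⟨x, hx⟩ : M) ∈ stabilizer M c := hc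
          rw [hM' c, Subgroup.mem_bot] at hm
          exact congrArg Subtype.val hm
      have hlt : d' < d := by omega
      have hodd' : Odd d' := Nat.Odd.of_mul_left (hdd ▸ hodd)
      let ε : V ≃* U := Subgroup.subgroupOfEquivOfLe hUN
      haveI hVnil : Group.IsNilpotent V := Group.nilpotent_of_mulEquiv ε.symm
      rcases ih d' hlt N V hZN hKV hVnil rfl hodd' with h | ⟨h1, h2, h3⟩
      · rw [hcV] at h
        exact Or.inl (h.trans (by omega))
      · refine Or.inr ⟨h1.of_equiv ε, hUc, ?_⟩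
        have h4 : (commutator V).map ε.toMonoidHom = commutator U := by
          rw [commutator_def, Subgroup.map_commutator,
            Subgroup.map_top_of_surjective ε.toMonoidHom ε.surjective, commutator_def]
        have h5 : (commutator U).index = (commutator V).index := by
          rw [← h4]; exact Subgroup.index_map_equiv _ ε
        rw [h5]
        refine h3.trans ?_
        have := Nat.pow_le_pow_left hlt.le 2
        omega
  push Not at hcomp
  obtain ⟨hcyc, -, hinv⟩ := S0739.result hZ hK.ne hodd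
    fun q hq hqd ⟨N, hN, hi⟩ => hcomp q hq hqd N hN hi
  obtain ⟨s, hsa, hsb⟩ := exists_map_pair hZ hK.ne hK.ne.symm
  haveI := hnilU
  set H := stabilizer G a ⊓ stabilizer G b with hH
  have hHc : IsMulCommutative ↥H := ⟨⟨fun x y => hcyc.commGroup.mul_comm x y⟩⟩
  set d := Nat.card ↥H with hd
  rcases hK.feit_alternative hZ hHc s hsa (hinv s hsa hsb) rfl hodd with h | ⟨p, hp, hpU, hind⟩
  · exact Or.inl h
  rcases eq_or_ne p 2 with rfl | hp2
  · exact Or.inr ⟨hpU, hUc, hind⟩
  -- for odd `p` the characters are coherent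
  haveI := hZ.1
  haveI := Fintype.ofFinite G
  haveI : Fintype ↥(stabilizer G a) := Fintype.ofFinite _
  haveI := Fintype.ofFinite Ω
  haveI : IsPretransitive G Ω := by
    haveI := hZ.2.1
    exact isPretransitive_of_is_two_pretransitive
  haveI hUn : (U.subgroupOf (stabilizer G a)).Normal := hK.normal
  have hU1 : U ≠ ⊥ := fun e => hUc (e ▸ ⟨⟨fun x y => Subsingleton.elim _ _⟩⟩)
  have hti : ∀ g : G, ∀ x ∈ U, x ≠ 1 → g * x * g⁻¹ ∈ U → g ∈ stabilizer G a := by
    intro g x hx hx1 hg
    have h1 : x • a = a := hK.le hx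
    refine hK.fix_only hg (fun e => hx1 (conj_eq_one_iff.mp e)) ?_
    rw [mul_smul, mul_smul, inv_smul_smul, h1]
  have hF : OddPartition.IsFrobTI (stabilizer G a) U := by
    refine ⟨lt_of_le_of_ne hK.le fun e => ?_, hU1, hK.conj, fun x hx hx1 c hc => ?_, hti⟩
    · refine twoPt_ne_bot hZ hK.ne ((Subgroup.eq_bot_iff_forall _).mpr fun y hy => ?_)
      by_contra hy1
      exact hK.ne (hK.fix_only (e.ge hy.1) hy1 hy.2).symm
    have hcx : c * x = x * c := Subgroup.mem_centralizer_singleton_iff.mp hc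
    have hca : c ∈ stabilizer G a :=
      hti c x hx hx1 (by rw [hcx, mul_inv_cancel_right]; exact hx)
    obtain ⟨v, hv, -⟩ := hK.reg (c • b) fun e => hK.ne (MulAction.injective c (hca.trans e.symm))
    by_contra hcU
    have hk1 : (v : G)⁻¹ * c ∈ H :=
      ⟨(stabilizer G a).mul_mem ((stabilizer G a).inv_mem (hK.le v.2)) hca, by
      show ((v : G)⁻¹ * c) • b = b
      rw [mul_smul, inv_smul_eq_iff, hv]⟩
    have hk0 : (v : G)⁻¹ * c ≠ 1 := fun e => hcU (inv_mul_eq_one.mp e ▸ v.2)
    obtain ⟨w, hw, hwe⟩ := hK.exists_conj_eq hZ hk1 hk0 v.2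
    rw [mul_inv_cancel_left] at hwe
    refine hx1 ?_
    have h1 : ((v : G)⁻¹ * c) * (w⁻¹ * x * w) * ((v : G)⁻¹ * c)⁻¹ = w⁻¹ * x * w := by
      have h2 : c * x * c⁻¹ = x := by rw [hcx, mul_inv_cancel_right]
      calc ((v : G)⁻¹ * c) * (w⁻¹ * x * w) * ((v : G)⁻¹ * c)⁻¹
          = w⁻¹ * ((w * ((v : G)⁻¹ * c) * w⁻¹) * x * (w * ((v : G)⁻¹ * c) * w⁻¹)⁻¹) * w := by group
        _ = w⁻¹ * x * w := by rw [hwe, h2]
    have h3 := kernel_free hK hZ hk1 hk0 (mul_mem (mul_mem (inv_mem hw) hx) hw) h1
    calc x = w * (w⁻¹ * x * w) * w⁻¹ := by group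
      _ = 1 := by rw [h3]; group
  have hLN : stabilizer G a = Subgroup.normalizer (U : Set G) := by
    refine le_antisymm (fun g hg => Subgroup.mem_normalizer_iff.mpr fun u =>
      ⟨hK.conj g hg u, fun hu => by simpa [mul_assoc] using hK.conj g⁻¹ (inv_mem hg) _ hu⟩) fun g hg => ?_
    obtain ⟨⟨x, hx⟩, hx1⟩ := Subgroup.ne_bot_iff_exists_ne_one.mp hU1
    exact hti g x hx (fun e => hx1 (Subtype.ext e)) ((Subgroup.mem_normalizer_iff.mp hg x).mp hx)
  have hindex : (U.subgroupOf (stabilizer G a)).index = d := by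
    have h1 := card_of_regular hK.ne U hK.le hK.reg
    have h2 : (stabilizer G a).index = Nat.card Ω := index_stabilizer_of_transitive G a
    have h3 := (U.subgroupOf (stabilizer G a)).index_mul_card
    rw [Nat.card_congr (Subgroup.subgroupOfEquivOfLe hK.le).toEquiv] at h3
    rw [← Subgroup.index_mul_card (stabilizer G a), h2, ← h3] at h1
    refine Nat.eq_of_mul_eq_mul_left (show 0 < Nat.card Ω * Nat.card U from
      Nat.mul_pos (by rw [← hK.card_eq]; omega) Nat.card_pos) ?_
    rw [hd]
    linarith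
  by_cases hsmall : Nat.card U = (U.subgroupOf (stabilizer G a)).index + 1
  · left; rw [hsmall, hindex]; omega
  rcases Dade.frob_coherent_or hF hLN hsmall with hcoh | ⟨h2, -⟩
  · exact Or.inl (coherent_bound hZ hK (Dade.kernel_centralizer hF) hcoh hUc hHc s hsa
      (hinv s hsa hsb) rfl hodd)
  · exfalso
    haveI := Fact.mk hp
    obtain ⟨n, hn⟩ := IsPGroup.iff_card.mp hpU
    rcases Nat.eq_zero_or_pos n with rfl | hn0
    · exact hU1 (Subgroup.eq_bot_of_card_eq _ (by rw [hn, pow_zero]))
    · have h3 : p ∣ 2 ^ (Nat.card G).factorization 2 := h2 ▸ hn ▸ dvd_pow_self p hn0.ne'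
      exact hp2 ((Nat.prime_dvd_prime_iff_eq hp Nat.prime_two).mp (hp.dvd_of_dvd_pow h3))

end Cfsg.Agent.Lib.Zass
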